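import Cfsg.Agent.FeitHigman.Chebyshev

/-! The multiplicity equations in a Hecke algebra of dihedral type. -/

set_option autoImplicit false

namespace CfsgLib.FeitHigman

open Polynomial
open Polynomial.Chebyshev (S)

/-- Two generators with quadratic relations, and a trace form with integral values on
idempotents which vanishes on short alternating words. -/
structure Data (A : Type*) [Ring A] [Algebra ℝ A] where
  R : A
  T : A
  t : ℝ
  q : ℝ
  N : ℝ
  d : ℕ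
  tr : A →ₗ[ℝ] ℝ
  two_le_t : 2 ≤ t
  two_le_q : 2 ≤ q
  R_sq : R * R = (t - 1) • R + t • 1
  T_sq : T * T = (q - 1) • T + q • 1
  tr_comm : ∀ x y, tr (x * y) = tr (y * x)
  tr_one : tr 1 = N
  tr_T : tr T = 0
  tr_word : ∀ i, i < d → tr ((R * T) ^ i * R) = 0
  tr_word' : ∀ i, i < d → tr (T * ((R * T) ^ i * R)) = 0
  idem : ∀ x : A, x * x = x → ∃ m : ℕ, tr x = m

namespace Data

variable {A : Type*} [Ring A] [Algebra ℝ A] (H : Data A)

/-- Alternating words beginning and ending in `R`. -/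
def W (i : ℕ) : A := (H.R * H.T) ^ i * H.R

theorem W_succ (i : ℕ) : H.W (i + 1) = H.R * H.T * H.W i := by
  rw [W, W, pow_succ', mul_assoc]

/-- `1 + T`. -/
def E : A := 1 + H.T

theorem E_mul_T : H.E * H.T = H.q • H.E := by
  rw [E, add_mul, one_mul, H.T_sq]; module

theorem T_mul_E : H.T * H.E = H.q • H.E := by
  rw [E, mul_add, mul_one, H.T_sq]; module

theorem E_sq : H.E * H.E = (1 + H.q) • H.E := by
  nth_rewrite 2 [E]
  rw [mul_add, mul_one, H.E_mul_T]; module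

theorem q_pos : 0 < H.q := by linarith [H.two_le_q]

theorem one_add_q_ne : (1 : ℝ) + H.q ≠ 0 := by linarith [H.two_le_q]

/-- The idempotent belonging to the parabolic of `T`. -/
noncomputable def e : A := (1 + H.q)⁻¹ • H.E

theorem E_mul_e : H.E * H.e = H.E := by
  rw [e, mul_smul_comm, H.E_sq, smul_smul, inv_mul_cancel₀ H.one_add_q_ne, one_smul]

theorem e_mul_E : H.e * H.E = H.E := by
  rw [e, smul_mul_assoc, H.E_sq, smul_smul, inv_mul_cancel₀ H.one_add_q_ne, one_smul]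

theorem e_mul_e : H.e * H.e = H.e := by
  conv_lhs => arg 2; rw [e]
  rw [mul_smul_comm, H.e_mul_E]; rfl

/-- The operators of the double cosets. -/
noncomputable def Pm (i : ℕ) : A := (1 + H.q)⁻¹ • (H.E * H.W i * H.E)

theorem e_mul_Pm (i : ℕ) : H.e * H.Pm i = H.Pm i := by
  rw [Pm, mul_smul_comm, ← mul_assoc, ← mul_assoc, H.e_mul_E]

theorem Pm_mul_e (i : ℕ) : H.Pm i * H.e = H.Pm i := by
  rw [Pm, smul_mul_assoc, mul_assoc, H.E_mul_e]

theorem Pm_zero_mul (i : ℕ) :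
    H.Pm 0 * H.Pm i = (1 + H.q)⁻¹ • (H.E * (H.R * H.W i) * H.E) +
      (1 + H.q)⁻¹ • (H.E * H.W (i + 1) * H.E) := by
  have h0 : H.W 0 = H.R := by rw [W, pow_zero, one_mul]
  calc H.Pm 0 * H.Pm i
      = ((1 + H.q)⁻¹ * (1 + H.q)⁻¹) • (H.E * H.R * (H.E * H.E) * H.W i * H.E) := by
        rw [Pm, Pm, h0, smul_mul_smul_comm]; simp only [mul_assoc]
    _ = (1 + H.q)⁻¹ • (H.E * H.R * H.E * H.W i * H.E) := by
        rw [H.E_sq]
        simp only [mul_smul_comm, smul_mul_assoc, smul_smul]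
        rw [mul_assoc (1 + H.q)⁻¹ _ _, inv_mul_cancel₀ H.one_add_q_ne, mul_one]
    _ = _ := by
        rw [← smul_add, W_succ]
        congr 1
        conv_lhs => arg 1; arg 1; arg 2; rw [E]
        noncomm_ring

theorem E_R_W_succ (i : ℕ) :
    H.E * (H.R * H.W (i + 1)) * H.E =
      (H.t - 1) • (H.E * H.W (i + 1) * H.E) + (H.t * H.q) • (H.E * H.W i * H.E) := by
  have h : H.R * H.W (i + 1) = (H.t - 1) • H.W (i + 1) + H.t • (H.T * H.W i) := by
    rw [W_succ, ← mul_assoc H.R, ← mul_assoc H.R H.R H.T, H.R_sq]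
    simp only [add_mul, smul_mul_assoc, one_mul, mul_assoc]
  rw [h, mul_add, add_mul, mul_smul_comm, mul_smul_comm, smul_mul_assoc, smul_mul_assoc,
    ← mul_assoc H.E H.T, H.E_mul_T, smul_mul_assoc, smul_mul_assoc, smul_smul]

theorem Pm_zero_mul_succ (i : ℕ) :
    H.Pm 0 * H.Pm (i + 1) =
      (H.t - 1) • H.Pm (i + 1) + (H.t * H.q) • H.Pm i + H.Pm (i + 2) := by
  rw [H.Pm_zero_mul, H.E_R_W_succ, Pm, Pm, Pm]; module

theorem Pm_zero_mul_zero :
    H.Pm 0 * H.Pm 0 = (H.t - 1) • H.Pm 0 + (H.t * (1 + H.q)) • H.e + H.Pm 1 := by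
  have h0 : H.W 0 = H.R := by rw [W, pow_zero, one_mul]
  rw [H.Pm_zero_mul, h0, H.R_sq, mul_add, add_mul, mul_smul_comm, mul_smul_comm, mul_one,
    smul_mul_assoc, smul_mul_assoc, H.E_sq, Pm, Pm, e, h0]
  module

/-- The normalising factor. -/
noncomputable def σ : ℝ := Real.sqrt (H.t * H.q)

theorem σ_pos : 0 < H.σ := Real.sqrt_pos.2 (mul_pos (by linarith [H.two_le_t]) H.q_pos)

theorem σ_sq : H.σ * H.σ = H.t * H.q :=
  Real.mul_self_sqrt (mul_pos (by linarith [H.two_le_t]) H.q_pos).le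

/-- The linear coefficient. -/
noncomputable def a : ℝ := (H.t - 1) / H.σ

/-- The normalised collinearity operator. -/
noncomputable def x : A := H.σ⁻¹ • H.Pm 0 - H.a • H.e

theorem e_mul_x : H.e * H.x = H.x := by
  rw [x, mul_sub, mul_smul_comm, mul_smul_comm, H.e_mul_Pm, H.e_mul_e]

theorem x_mul_e : H.x * H.e = H.x := by
  rw [x, sub_mul, smul_mul_assoc, smul_mul_assoc, H.Pm_mul_e, H.e_mul_e]

theorem commute_e_aeval (p : ℝ[X]) : Commute H.e (aeval H.x p) := by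
  induction p using Polynomial.induction_on' with
  | add p r hp hr => rw [map_add]; exact hp.add_right hr
  | monomial n c =>
    rw [aeval_monomial]
    exact (Algebra.commute_algebraMap_right c H.e).mul_right
      ((show Commute H.e H.x from H.e_mul_x.trans H.x_mul_e.symm).pow_right n)

/-- Evaluation in the corner of `e`. -/
noncomputable def ev : ℝ[X] →ₗ[ℝ] A :=
  (LinearMap.mulLeft ℝ H.e).comp (aeval H.x).toLinearMap

theorem ev_apply (p : ℝ[X]) : H.ev p = H.e * aeval H.x p := rfl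

theorem ev_mul (p r : ℝ[X]) : H.ev (p * r) = H.ev p * H.ev r := by
  rw [ev_apply, ev_apply, ev_apply, map_mul]
  calc H.e * (aeval H.x p * aeval H.x r) = H.e * H.e * aeval H.x p * aeval H.x r := by
        rw [H.e_mul_e, mul_assoc]
  _ = H.e * (H.e * aeval H.x p) * aeval H.x r := by simp only [mul_assoc]
  _ = H.e * (aeval H.x p * H.e) * aeval H.x r := by rw [(H.commute_e_aeval p).eq]
  _ = H.e * aeval H.x p * (H.e * aeval H.x r) := by simp only [mul_assoc]

theorem ev_C (r : ℝ) : H.ev (C r) = r • H.e := by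
  rw [ev_apply, aeval_C, Algebra.algebraMap_eq_smul_one, mul_smul_comm, mul_one]

theorem ev_C_mul (r : ℝ) (p : ℝ[X]) : H.ev (C r * p) = r • H.ev p := by
  rw [← smul_eq_C_mul, map_smul]

theorem ev_X : H.ev X = H.x := by rw [ev_apply, aeval_X, H.e_mul_x]

/-- The normalised double coset operators. -/
noncomputable def Qn (i : ℕ) : A := (H.σ ^ (i + 1))⁻¹ • H.Pm i

theorem ev_distPoly (i : ℕ) : H.ev (distPoly H.a H.q⁻¹ ((i : ℤ) + 1)) = H.Qn i := by
  have hσ := H.σ_pos.ne'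
  have hσ2 := H.σ_sq
  have hq := H.q_pos.ne'
  have ha : H.σ * H.a = H.t - 1 := by rw [a]; field_simp
  induction i using Nat.twoStepInduction with
  | zero =>
    rw [Nat.cast_zero, zero_add, distPoly_one, map_add, H.ev_X, H.ev_C, Qn, x]
    simp
  | one =>
    have h := congrArg H.ev (X_mul_distPoly H.a H.q⁻¹ 1)
    rw [H.ev_mul, H.ev_X, map_add, show (1 : ℤ) - 1 = 0 by ring, distPoly_zero, H.ev_C,
      distPoly_one, map_add, H.ev_X, H.ev_C] at h
    rw [show ((1 : ℕ) : ℤ) + 1 = 1 + 1 by norm_num, ← sub_eq_of_eq_add h]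
    have hx : H.x + H.a • H.e = H.σ⁻¹ • H.Pm 0 := by rw [x]; abel
    rw [hx, x, sub_mul, smul_mul_assoc, smul_mul_assoc, mul_smul_comm, mul_smul_comm,
      H.Pm_zero_mul_zero, H.e_mul_Pm, Qn]
    match_scalars
    · field_simp; linear_combination -ha
    · field_simp; linear_combination (-(1 + H.q)) * hσ2
    · field_simp
  | more i h0 h1 =>
    have h := congrArg H.ev (X_mul_distPoly H.a H.q⁻¹ ((i : ℤ) + 2))
    push_cast at h1 ⊢
    rw [H.ev_mul, H.ev_X, map_add, show (i : ℤ) + 2 - 1 = i + 1 by ring, h0,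
      show (i : ℤ) + 2 = i + 1 + 1 by ring, h1] at h
    rw [show (i : ℤ) + 2 + 1 = i + 1 + 1 + 1 by ring, ← sub_eq_of_eq_add h, Qn, x, sub_mul,
      smul_mul_assoc, smul_mul_assoc, mul_smul_comm, mul_smul_comm, H.Pm_zero_mul_succ,
      H.e_mul_Pm, Qn, Qn]
    match_scalars
    · field_simp; linear_combination -ha
    · field_simp; linear_combination (-(H.σ * H.σ ^ i)) * hσ2
    · field_simp; ring

theorem tr_e : H.tr H.e = H.N / (1 + H.q) := by
  rw [e, E, map_smul, map_add, H.tr_one, H.tr_T, add_zero, smul_eq_mul, inv_mul_eq_div]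

theorem tr_Qn {i : ℕ} (hi : i < H.d) : H.tr (H.Qn i) = 0 := by
  rw [Qn, Pm, map_smul, map_smul, H.tr_comm, ← mul_assoc, H.E_sq, smul_mul_assoc, map_smul, E,
    add_mul, one_mul, map_add]
  rw [show H.tr (H.W i) = 0 from H.tr_word i hi, show H.tr (H.T * H.W i) = 0 from H.tr_word' i hi]
  simp

theorem tr_ev_distPoly {k : ℕ} (hk : k ≤ H.d) :
    H.tr (H.ev (distPoly H.a H.q⁻¹ (k : ℤ))) = if k = 0 then H.N / H.q else 0 := by
  rcases k with _ | k
  · rw [if_pos rfl, Nat.cast_zero, distPoly_zero, H.ev_C, map_smul, H.tr_e, smul_eq_mul]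
    have := H.q_pos.ne'
    have := H.one_add_q_ne
    field_simp
    ring
  · rw [if_neg (Nat.succ_ne_zero k), Nat.cast_succ, H.ev_distPoly, H.tr_Qn (by omega)]

theorem exists_multiplicity {full f : ℝ[X]} {θ : ℝ} (hfull : H.ev full = 0)
    (hdvd : full ∣ f * (X - C θ)) (hθ : f.eval θ ≠ 0) :
    ∃ m : ℕ, H.tr (H.ev f) = m * f.eval θ := by
  obtain ⟨h, hh⟩ := X_sub_C_dvd_sub_C_eval (a := θ) (p := f)
  obtain ⟨g, hg⟩ := hdvd
  have hff : H.ev f * H.ev f = f.eval θ • H.ev f := by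
    have : f * f = full * (g * h) + C (f.eval θ) * f := by
      rw [← mul_assoc, ← hg, mul_assoc, ← hh]; ring
    rw [← H.ev_mul, this, map_add, H.ev_mul, hfull, zero_mul, zero_add, H.ev_C_mul]
  obtain ⟨m, hm⟩ := H.idem ((f.eval θ)⁻¹ • H.ev f) (by
    rw [smul_mul_smul_comm, hff, smul_smul, mul_assoc, inv_mul_cancel₀ hθ, mul_one])
  refine ⟨m, ?_⟩
  rw [map_smul, smul_eq_mul] at hm
  rw [← hm]; field_simp

/-- The quadratic with the extreme eigenvalues is negative between `-2` and `2`. -/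
theorem quad_neg {θ : ℝ} (hθ : θ ^ 2 < 4) :
    θ ^ 2 - H.a * (H.q - 1) * θ + (-H.q - H.q⁻¹ - H.q * H.a ^ 2 - 2) < 0 := by
  have hq := H.q_pos
  have e : H.q * (θ ^ 2 - H.a * (H.q - 1) * θ + (-H.q - H.q⁻¹ - H.q * H.a ^ 2 - 2)) =
      H.q * (θ ^ 2 - 4) - (H.q - 1 + H.q * H.a * θ / 2) ^ 2 -
        (H.q * H.a) ^ 2 * (4 - θ ^ 2) / 4 := by field_simp; ring
  have h1 : 0 ≤ (H.q * H.a) ^ 2 * (4 - θ ^ 2) / 4 := by
    have : 0 ≤ 4 - θ ^ 2 := by linarith
    positivity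
  have h2 : H.q * (θ ^ 2 - 4) < 0 := mul_neg_of_pos_of_neg hq (by linarith)
  by_contra hcon
  have := mul_nonneg hq.le (not_lt.1 hcon)
  nlinarith [sq_nonneg (H.q - 1 + H.q * H.a * θ / 2)]

/-- The multiplicity equation for even polygons. -/
theorem even_multiplicity {D : ℕ} (hD : 1 ≤ D) (hd : H.d = D + 1)
    (hb : H.T * H.W D = H.W D * H.T) {θ : ℝ} (hroot : (S ℝ (D : ℤ)).eval θ = 0)
    (hθ : θ ^ 2 < 4) :
    ∃ m : ℕ, H.N * (θ ^ 2 - 4) = 2 * (D + 1) * m *
      (θ ^ 2 - H.a * (H.q - 1) * θ + (-H.q - H.q⁻¹ - H.q * H.a ^ 2 - 2)) := by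
  obtain ⟨j, rfl⟩ : ∃ j, D = j + 1 := ⟨D - 1, by omega⟩
  have hσ := H.σ_pos.ne'
  have hσ2 := H.σ_sq
  have hq := H.q_pos.ne'
  have ha : H.σ * H.a = H.t - 1 := by rw [a]; field_simp
  have hP : H.Pm (j + 2) = H.q • ((H.t - 1) • H.Pm (j + 1) + (H.t * H.q) • H.Pm j) := by
    have : H.E * H.W (j + 2) * H.E = H.q • (H.E * (H.R * H.W (j + 1)) * H.E) := by
      rw [H.W_succ (j + 1), mul_assoc H.R, hb]
      simp only [mul_assoc]
      rw [H.T_mul_E]
      simp only [mul_smul_comm]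
    rw [Pm, Pm, Pm, this, H.E_R_W_succ]; module
  set quad : ℝ[X] := X ^ 2 - C (H.a * (H.q - 1)) * X + C (-H.q - H.q⁻¹ - H.q * H.a ^ 2 - 2)
    with hquad
  have hfull : H.ev (quad * S ℝ ((j + 1 : ℕ) : ℤ)) = 0 := by
    rw [hquad, quad_mul_S hq, map_sub, map_sub, H.ev_C_mul, H.ev_C_mul,
      show ((j + 1 : ℕ) : ℤ) + 2 = ((j + 2 : ℕ) : ℤ) + 1 by push_cast; ring,
      show ((j + 1 : ℕ) : ℤ) + 1 = ((j + 1 : ℕ) : ℤ) + 1 from rfl,
      show ((j + 1 : ℕ) : ℤ) = (j : ℤ) + 1 by push_cast; ring]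
    rw [H.ev_distPoly, show (j : ℤ) + 1 + 1 = ((j + 1 : ℕ) : ℤ) + 1 by push_cast; ring,
      H.ev_distPoly, H.ev_distPoly, Qn, Qn, Qn, hP]
    match_scalars
    · field_simp; linear_combination (-(H.q * H.σ ^ 2 * H.σ ^ j)) * ha
    · field_simp; linear_combination (-(H.q * H.σ * H.σ ^ j)) * hσ2
  set g : ℝ[X] := ∑ k ∈ Finset.range (j + 1),
    C ((S ℝ (((j + 1 : ℕ) : ℤ) - 1 - k)).eval θ) * S ℝ (k : ℤ) with hg
  have hgX : (X - C θ) * g = S ℝ ((j + 1 : ℕ) : ℤ) := by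
    rw [hg, sub_mul_sum θ _ X_mul_S, hroot, Polynomial.Chebyshev.S_neg_one]; simp
  have hder : g.eval θ = (derivative (S ℝ ((j + 1 : ℕ) : ℤ))).eval θ := by
    rw [← hgX, derivative_mul]; simp
  have hD' := congrArg (eval θ) (derivative_S (j + 1))
  simp only [eval_mul, eval_sub, eval_pow, eval_X, eval_ofNat, eval_C] at hD'
  rw [← hder] at hD'
  have hu := congrArg (eval θ) (X_mul_S (((j + 1 : ℕ) : ℤ)))
  simp only [eval_mul, eval_X, eval_add, hroot, mul_zero] at hu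
  set u := (S ℝ (((j + 1 : ℕ) : ℤ) - 1)).eval θ with hudef
  have hsq := congrArg (eval θ) (Polynomial.Chebyshev.S_sq_add_S_sq ℝ (((j + 1 : ℕ) : ℤ) - 1))
  simp only [sub_add_cancel, eval_sub, eval_add, eval_pow, eval_mul, eval_X, eval_one, hroot,
    mul_zero, sub_zero, zero_pow two_ne_zero, add_zero] at hsq
  rw [← hudef] at hsq
  have hu0 : u ≠ 0 := by intro h; rw [h] at hsq; norm_num at hsq
  have hfeval : (quad * g).eval θ =
      (θ ^ 2 - H.a * (H.q - 1) * θ + (-H.q - H.q⁻¹ - H.q * H.a ^ 2 - 2)) * g.eval θ := by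
    simp [hquad]
  have hgθ : (θ ^ 2 - 4) * g.eval θ = -2 * ((j : ℝ) + 2) * u := by
    rw [hD']; push_cast at hu ⊢; linear_combination (-((j : ℝ) + 1)) * hu
  have hg0 : g.eval θ ≠ 0 := fun h => by
    rw [h, mul_zero] at hgθ
    rcases mul_eq_zero.1 hgθ.symm with h' | h'
    · nlinarith [(Nat.cast_nonneg j : (0 : ℝ) ≤ j)]
    · exact hu0 h'
  obtain ⟨m, hm⟩ := H.exists_multiplicity hfull
    (f := quad * g) (θ := θ) ⟨1, by rw [mul_one, ← hgX]; ring⟩
    (by rw [hfeval]; exact mul_ne_zero (H.quad_neg hθ).ne hg0)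
  have htr : H.tr (H.ev (quad * g)) = -H.N * u := by
    have hterm : ∀ k ∈ Finset.range (j + 1), H.tr (H.ev (quad * S ℝ (k : ℤ))) =
        if k = 0 then -H.N else 0 := fun k hk => by
      rw [Finset.mem_range] at hk
      rw [hquad, quad_mul_S hq]
      simp only [map_sub, H.ev_C_mul, map_smul]
      rw [show (k : ℤ) + 2 = ((k + 2 : ℕ) : ℤ) by push_cast; ring,
        show (k : ℤ) + 1 = ((k + 1 : ℕ) : ℤ) by push_cast; ring,
        H.tr_ev_distPoly (by omega), H.tr_ev_distPoly (by omega), H.tr_ev_distPoly (by omega),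
        if_neg (show k + 2 ≠ 0 by omega), if_neg (show k + 1 ≠ 0 by omega)]
      split_ifs
      · rw [smul_eq_mul, smul_eq_mul]; field_simp; ring
      · rw [smul_eq_mul, smul_eq_mul]; ring
    rw [hg, Finset.mul_sum, map_sum, map_sum]
    have : ∀ k ∈ Finset.range (j + 1),
        H.tr (H.ev (quad * (C ((S ℝ (((j + 1 : ℕ) : ℤ) - 1 - k)).eval θ) * S ℝ (k : ℤ)))) =
          (S ℝ (((j + 1 : ℕ) : ℤ) - 1 - k)).eval θ * if k = 0 then -H.N else 0 := fun k hk => by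
      rw [mul_left_comm, H.ev_C_mul, map_smul, hterm k hk, smul_eq_mul]
    rw [Finset.sum_congr rfl this, Finset.sum_eq_single 0 (fun k _ hk => by simp [hk])
      (fun h => by simp at h), if_pos rfl, hudef, Nat.cast_zero, sub_zero]
    ring
  refine ⟨m, mul_right_cancel₀ hu0 ?_⟩
  rw [hfeval, htr] at hm
  push_cast
  linear_combination (-(θ ^ 2 - 4)) * hm -
    ((m : ℝ) * (θ ^ 2 - H.a * (H.q - 1) * θ + (-H.q - H.q⁻¹ - H.q * H.a ^ 2 - 2))) * hgθ

/-- The multiplicity equation for odd polygons. -/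
theorem odd_multiplicity {D : ℕ} (hd : H.d = D + 1) (htq : H.t = H.q)
    (hb : H.W (D + 1) = H.T * (H.R * H.T) ^ (D + 1)) {θ : ℝ}
    (hroot : (S ℝ ((D + 1 : ℕ) : ℤ) + S ℝ (((D + 1 : ℕ) : ℤ) - 1)).eval θ = 0)
    (hθ : θ ^ 2 < 4) :
    ∃ m : ℕ, (2 * (D + 1) + 1) * m * (θ - (H.q + H.q⁻¹)) = H.N * (θ - 2) := by
  have hq := H.q_pos.ne'
  have hσ : H.σ = H.q := by
    rw [σ, htq]; exact Real.sqrt_mul_self H.q_pos.le
  have ha : H.a = 1 - H.q⁻¹ := by rw [a, hσ, htq]; field_simp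
  have hP : H.Pm (D + 1) = (H.q * H.q) • H.Pm D := by
    have hw : (H.R * H.T) ^ (D + 1) = H.W D * H.T := by rw [W, pow_succ, mul_assoc]
    rw [Pm, Pm, hb, hw]
    calc (1 + H.q)⁻¹ • (H.E * (H.T * (H.W D * H.T)) * H.E)
        = (1 + H.q)⁻¹ • ((H.E * H.T) * H.W D * (H.T * H.E)) := by simp only [mul_assoc]
      _ = _ := by
        rw [H.E_mul_T, H.T_mul_E]
        simp only [smul_mul_assoc, mul_smul_comm, smul_smul]
        congr 1; ring
  set lin : ℝ[X] := X - C (H.q + H.q⁻¹) with hlin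
  let V : ℤ → ℝ[X] := fun k => S ℝ k + S ℝ (k - 1)
  have hV : ∀ k, X * V k = V (k + 1) + V (k - 1) := fun k => by
    simp only [V, mul_add, X_mul_S]
    rw [show k + 1 - 1 = k by ring, show k - 1 + 1 = k by ring]; ring
  have hfull : H.ev (lin * V ((D + 1 : ℕ) : ℤ)) = 0 := by
    simp only [V]
    rw [hlin, lin_mul_S hq, ← ha, map_sub, H.ev_C_mul, H.ev_distPoly,
      show ((D + 1 : ℕ) : ℤ) = (D : ℤ) + 1 by push_cast; ring, H.ev_distPoly, Qn, Qn, hP, hσ]
    match_scalars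
    field_simp; ring
  set g : ℝ[X] := ∑ k ∈ Finset.range (D + 1),
    C ((S ℝ (((D + 1 : ℕ) : ℤ) - 1 - k)).eval θ) * V k with hg
  have hgX : (X - C θ) * g = V ((D + 1 : ℕ) : ℤ) := by
    rw [hg, sub_mul_sum θ V hV]
    simp only [V, show (0 : ℤ) - 1 = -1 by ring, show (-1 : ℤ) - 1 = -2 by ring,
      Polynomial.Chebyshev.S_neg_one, Polynomial.Chebyshev.S_neg_two,
      Polynomial.Chebyshev.S_zero]
    rw [eval_add] at hroot
    have : C ((S ℝ ((D + 1 : ℕ) : ℤ)).eval θ) + C ((S ℝ (((D + 1 : ℕ) : ℤ) - 1)).eval θ) =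
        (0 : ℝ[X]) := by rw [← C_add, hroot, map_zero]
    linear_combination -this
  have hder : g.eval θ = (derivative (V ((D + 1 : ℕ) : ℤ))).eval θ := by
    rw [← hgX, derivative_mul]; simp
  simp only [V, derivative_add, eval_add] at hder
  have hD1 := congrArg (eval θ) (derivative_S (D + 1))
  have hD0 := congrArg (eval θ) (derivative_S D)
  simp only [eval_mul, eval_sub, eval_pow, eval_X, eval_ofNat, eval_C] at hD1 hD0
  rw [eval_add] at hroot
  push_cast at hroot hD1 hD0 hder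
  rw [add_sub_cancel_right] at hroot hD1 hder
  have h1 := congrArg (eval θ) (X_mul_S ((D : ℤ) + 1))
  have h0 := congrArg (eval θ) (X_mul_S (D : ℤ))
  simp only [eval_mul, eval_X, eval_add, add_sub_cancel_right] at h1 h0
  set u := (S ℝ (D : ℤ)).eval θ with hudef
  have hsq := congrArg (eval θ) (Polynomial.Chebyshev.S_sq_add_S_sq ℝ (D : ℤ))
  simp only [eval_sub, eval_add, eval_pow, eval_mul, eval_X, eval_one, ← hudef,
    eq_neg_of_add_eq_zero_left hroot] at hsq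
  have hu0 : u ≠ 0 := by intro h; rw [h] at hsq; norm_num at hsq
  have hgθ : (θ ^ 2 - 4) * g.eval θ = -(2 * ((D : ℝ) + 1) + 1) * (θ + 2) * u := by
    rw [hder, mul_add, hD1, hD0]
    linear_combination (-((D : ℝ) + 1)) * h1 + ((D : ℝ) + 2) * h0 +
      ((D : ℝ) * 2 + 2 + ((D : ℝ) + 1) * θ) * hroot
  have hne : θ + 2 ≠ 0 := fun h => by
    rw [show θ = -2 by linarith] at hθ; norm_num at hθ
  have hne' : θ - (H.q + H.q⁻¹) ≠ 0 := by
    intro h
    have h2 : 2 < H.q + H.q⁻¹ := by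
      have : 0 < H.q⁻¹ := inv_pos.2 H.q_pos
      linarith [H.two_le_q]
    nlinarith
  have hg0 : g.eval θ ≠ 0 := fun h => by
    rw [h, mul_zero] at hgθ
    rcases mul_eq_zero.1 hgθ.symm with h' | h'
    · rcases mul_eq_zero.1 h' with h'' | h''
      · nlinarith [(Nat.cast_nonneg D : (0 : ℝ) ≤ D)]
      · exact hne h''
    · exact hu0 h'
  have hfeval : (lin * g).eval θ = (θ - (H.q + H.q⁻¹)) * g.eval θ := by simp [hlin]
  obtain ⟨m, hm⟩ := H.exists_multiplicity hfull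
    (f := lin * g) (θ := θ) ⟨1, by rw [mul_one, ← hgX]; ring⟩
    (by rw [hfeval]; exact mul_ne_zero hne' hg0)
  have htr : H.tr (H.ev (lin * g)) = -H.N * u := by
    have hterm : ∀ k ∈ Finset.range (D + 1), H.tr (H.ev (lin * V (k : ℤ))) =
        if k = 0 then -H.N else 0 := fun k hk => by
      rw [Finset.mem_range] at hk
      simp only [V]
      rw [hlin, lin_mul_S hq, ← ha, map_sub, H.ev_C_mul, map_sub, map_smul,
        show (k : ℤ) + 1 = ((k + 1 : ℕ) : ℤ) by push_cast; ring,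
        H.tr_ev_distPoly (by omega), H.tr_ev_distPoly (by omega),
        if_neg (show k + 1 ≠ 0 by omega)]
      split_ifs
      · rw [smul_eq_mul]; field_simp; ring
      · rw [smul_eq_mul]; ring
    rw [hg, Finset.mul_sum, map_sum, map_sum]
    have : ∀ k ∈ Finset.range (D + 1),
        H.tr (H.ev (lin * (C ((S ℝ (((D + 1 : ℕ) : ℤ) - 1 - k)).eval θ) * V (k : ℤ)))) =
          (S ℝ (((D + 1 : ℕ) : ℤ) - 1 - k)).eval θ * if k = 0 then -H.N else 0 := fun k hk => by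
      rw [mul_left_comm, H.ev_C_mul, map_smul, hterm k hk, smul_eq_mul]
    rw [Finset.sum_congr rfl this, Finset.sum_eq_single 0 (fun k _ hk => by simp [hk])
      (fun h => by simp at h), if_pos rfl, hudef]
    push_cast
    rw [sub_zero, add_sub_cancel_right]
    ring
  refine ⟨m, mul_right_cancel₀ hu0 (mul_right_cancel₀ hne ?_)⟩
  rw [hfeval, htr] at hm
  linear_combination (θ ^ 2 - 4) * hm + ((m : ℝ) * (θ - (H.q + H.q⁻¹))) * hgθ

end Data

end CfsgLib.FeitHigman
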