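import Mathlib

/-! Polynomial identities for the rescaled Chebyshev polynomials used in the Feit–Higman
argument. -/

set_option autoImplicit false

namespace CfsgLib.FeitHigman

open Polynomial
open Polynomial.Chebyshev (S)

/-- The distance polynomials of a generalized polygon, normalised. -/
noncomputable def distPoly (a c : ℝ) (i : ℤ) : ℝ[X] :=
  S ℝ i + C a * S ℝ (i - 1) - C c * S ℝ (i - 2)

theorem X_mul_S (k : ℤ) : X * S ℝ k = S ℝ (k + 1) + S ℝ (k - 1) := by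
  rw [Polynomial.Chebyshev.S_add_one ℝ k]; ring

theorem X_mul_distPoly (a c : ℝ) (i : ℤ) :
    X * distPoly a c i = distPoly a c (i + 1) + distPoly a c (i - 1) := by
  have h0 := X_mul_S i
  have h1 := X_mul_S (i - 1)
  have h2 := X_mul_S (i - 2)
  rw [distPoly, distPoly, distPoly]
  rw [show i + 1 - 1 = i - 1 + 1 by ring, show i + 1 - 2 = i - 2 + 1 by ring,
    show i - 1 - 2 = i - 2 - 1 by ring]
  linear_combination h0 + C a * h1 - C c * h2

theorem distPoly_zero (a c : ℝ) : distPoly a c 0 = C (1 + c) := by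
  rw [distPoly, Polynomial.Chebyshev.S_zero, show (0 : ℤ) - 1 = -1 by ring,
    show (0 : ℤ) - 2 = -2 by ring, Polynomial.Chebyshev.S_neg_one,
    Polynomial.Chebyshev.S_neg_two, map_add, map_one]
  ring

theorem distPoly_one (a c : ℝ) : distPoly a c 1 = X + C a := by
  rw [distPoly, Polynomial.Chebyshev.S_one, show (1 : ℤ) - 1 = 0 by ring,
    show (1 : ℤ) - 2 = -1 by ring, Polynomial.Chebyshev.S_zero, Polynomial.Chebyshev.S_neg_one]
  ring

/-- Multiplying by the quadratic carrying the two extreme eigenvalues. -/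
theorem quad_mul_S {q : ℝ} (hq : q ≠ 0) (a : ℝ) (k : ℤ) :
    (X ^ 2 - C (a * (q - 1)) * X + C (-q - q⁻¹ - q * a ^ 2 - 2)) * S ℝ k =
      distPoly a q⁻¹ (k + 2) - C (a * q) * distPoly a q⁻¹ (k + 1) - C q * distPoly a q⁻¹ k := by
  have hc : C q * C q⁻¹ = (1 : ℝ[X]) := by rw [← C_mul, mul_inv_cancel₀ hq, map_one]
  have e1 := X_mul_S k
  have e2 := X_mul_S (k + 1)
  have e3 := X_mul_S (k - 1)
  simp only [distPoly, map_sub, map_mul, map_neg, map_pow, map_one, map_ofNat,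
    show k + 2 - 1 = k + 1 by ring, show k + 2 - 2 = k by ring, show k + 1 - 1 = k by ring,
    show k + 1 - 2 = k - 1 by ring, show k + 1 + 1 = k + 2 by ring,
    show k - 1 + 1 = k by ring, show k - 1 - 1 = k - 2 by ring] at e1 e2 e3 ⊢
  linear_combination (X - C a * (C q - 1)) * e1 + e2 + e3 -
    (C a * S ℝ (k - 1) + S ℝ (k - 2)) * hc

/-- Multiplying by the linear factor carrying the extreme eigenvalue (odd polygons). -/
theorem lin_mul_S {q : ℝ} (hq : q ≠ 0) (k : ℤ) :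
    (X - C (q + q⁻¹)) * (S ℝ k + S ℝ (k - 1)) =
      distPoly (1 - q⁻¹) q⁻¹ (k + 1) - C q * distPoly (1 - q⁻¹) q⁻¹ k := by
  have hc : C q * C q⁻¹ = (1 : ℝ[X]) := by rw [← C_mul, mul_inv_cancel₀ hq, map_one]
  have e1 := X_mul_S k
  have e2 := X_mul_S (k - 1)
  simp only [distPoly, map_sub, map_add, map_one, show k + 1 - 1 = k by ring,
    show k + 1 - 2 = k - 1 by ring, show k - 1 + 1 = k by ring,
    show k - 1 - 1 = k - 2 by ring] at e1 e2 ⊢
  linear_combination e1 + e2 - (S ℝ (k - 1) + S ℝ (k - 2)) * hc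

/-- The Christoffel–Darboux expansion of a quotient. -/
theorem sub_mul_sum (θ : ℝ) (Y : ℤ → ℝ[X]) (hY : ∀ k, X * Y k = Y (k + 1) + Y (k - 1)) (m : ℕ) :
    (X - C θ) * ∑ k ∈ Finset.range m, C ((S ℝ ((m : ℤ) - 1 - k)).eval θ) * Y k =
      Y m - C ((S ℝ (m : ℤ)).eval θ) * Y 0 + C ((S ℝ ((m : ℤ) - 1)).eval θ) * Y (-1) := by
  let w : ℤ → ℝ[X] := fun k => C ((S ℝ ((m : ℤ) - 1 - k)).eval θ)
  have hw : ∀ k, C θ * w k = w (k - 1) + w (k + 1) := by
    intro k
    have := congrArg (fun p => C (p.eval θ)) (X_mul_S ((m : ℤ) - 1 - k))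
    simp only [eval_mul, eval_X, eval_add, map_mul, map_add] at this
    simp only [w]
    rw [this, show (m : ℤ) - 1 - (k - 1) = (m : ℤ) - 1 - k + 1 by ring,
      show (m : ℤ) - 1 - (k + 1) = (m : ℤ) - 1 - k - 1 by ring]
  have hstep : ∀ k : ℕ, (X - C θ) * (w k * Y k) =
      (w k * Y (k + 1 : ℕ) - w ((k : ℤ) - 1) * Y k) -
        (w ((k + 1 : ℕ) : ℤ) * Y k - w k * Y ((k : ℤ) - 1)) := by
    intro k
    push_cast
    linear_combination w k * hY k - Y k * hw k
  have hA : ∀ k : ℕ, w ((k + 1 : ℕ) : ℤ) * Y k - w k * Y ((k : ℤ) - 1) =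
      w ((k + 1 : ℕ) : ℤ) * Y (((k + 1 : ℕ) : ℤ) - 1) - w k * Y ((k : ℤ) - 1) := fun k => by
    push_cast; rw [show (k : ℤ) + 1 - 1 = k by ring]
  have hB : ∀ k : ℕ, w k * Y (k + 1 : ℕ) - w ((k : ℤ) - 1) * Y k =
      w (((k + 1 : ℕ) : ℤ) - 1) * Y (k + 1 : ℕ) - w ((k : ℤ) - 1) * Y k := fun k => by
    push_cast; rw [show (k : ℤ) + 1 - 1 = k by ring]
  rw [Finset.mul_sum, Finset.sum_congr rfl fun k _ => hstep k, Finset.sum_sub_distrib,
    Finset.sum_congr rfl fun k _ => hB k, Finset.sum_congr rfl fun k _ => hA k,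
    Finset.sum_range_sub (fun k : ℕ => w ((k : ℤ) - 1) * Y k),
    Finset.sum_range_sub (fun k : ℕ => w k * Y ((k : ℤ) - 1))]
  simp only [w, Nat.cast_zero, sub_zero, zero_sub,
    show (m : ℤ) - 1 - ((m : ℤ) - 1) = 0 by ring, show (m : ℤ) - 1 - (m : ℤ) = -1 by ring,
    show (m : ℤ) - 1 - -1 = (m : ℤ) by ring, Polynomial.Chebyshev.S_zero,
    Polynomial.Chebyshev.S_neg_one, eval_one, eval_zero, map_one, map_zero]
  ring

/-- The derivative identity. -/
theorem derivative_S (n : ℕ) :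
    ((X : ℝ[X]) ^ 2 - 4) * derivative (S ℝ (n : ℤ)) =
        C (n : ℝ) * S ℝ ((n : ℤ) + 1) - C ((n : ℝ) + 2) * S ℝ ((n : ℤ) - 1) := by
  induction n using Nat.twoStepInduction with
  | zero =>
    simp [Polynomial.Chebyshev.S_neg_one]
  | one =>
    norm_num [Polynomial.Chebyshev.S_two, Polynomial.Chebyshev.S_one, Polynomial.Chebyshev.S_zero]
    rw [map_ofNat]; ring
  | more n h0 h1 =>
    have hd := congrArg derivative (X_mul_S ((n : ℤ) + 1))
    simp only [derivative_mul, derivative_X, one_mul, derivative_add] at hd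
    have e1 := X_mul_S ((n : ℤ) + 2)
    have e2 := X_mul_S ((n : ℤ) + 1)
    have e3 := X_mul_S (n : ℤ)
    push_cast at h1 ⊢
    simp only [map_add, map_ofNat, map_one, show (n : ℤ) + 1 + 1 = (n : ℤ) + 2 by ring,
      show (n : ℤ) + 1 - 1 = n by ring, show (n : ℤ) + 2 + 1 = (n : ℤ) + 3 by ring,
      show (n : ℤ) + 2 - 1 = (n : ℤ) + 1 by ring, show (n : ℤ) + 1 + 2 = (n : ℤ) + 3 by ring]
      at h0 h1 hd e1 e2 e3 ⊢
    linear_combination (-(X ^ 2 - 4 : ℝ[X])) * hd + X * h1 - h0 + X * e2 +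
      (C (n : ℝ) + 2) * e1 - (C (n : ℝ) + 2) * e3

end CfsgLib.FeitHigman
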