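import Cfsg.Agent.FeitHigman.Operators

/-! The Weyl group of a rank two (B, N)-pair is dihedral. -/

set_option autoImplicit false

namespace CfsgLib.FeitHigman

open CfsgLib.BNPair

/-- Two distinct generators which exhaust the generators. -/
structure GenPair {G : Type*} [Group G] (P : Cfsg.BNPair G) where
  a : P.S
  b : P.S
  ne : a ≠ b
  all : ∀ s : P.S, s = a ∨ s = b

namespace GenPair

variable {G : Type*} [Group G] {P : Cfsg.BNPair G} (g : GenPair P)

/-- The pair in the other order. -/
def swap : GenPair P := ⟨g.b, g.a, g.ne.symm, fun s => (g.all s).symm⟩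

/-- The order of the product. -/
noncomputable def n : ℕ := orderOf (gen P g.a * gen P g.b)

theorem n_swap : g.swap.n = g.n := by
  show orderOf _ = orderOf _
  rw [← orderOf_inv, mul_inv_rev, gen_inv, gen_inv]; rfl

/-- The alternating elements. -/
def u (k : ℕ) : Weyl P := wordProd P (altWord g.a g.b k)

theorem u_zero : g.u 0 = 1 := rfl

theorem u_succ (k : ℕ) : g.u (k + 1) = gen P g.a * g.swap.u k := wordProd_cons P _ _

theorem swap_swap : g.swap.swap = g := rfl

theorem gen_a_mul_u (k : ℕ) : gen P g.a * g.u (k + 1) = g.swap.u k := by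
  rw [u_succ, gen_mul_gen_mul]

theorem u_mul_inv (k : ℕ) : g.u k * (g.swap.u k)⁻¹ = (gen P g.a * gen P g.b) ^ k :=
  altWord_prod_div (gen P) (gen_mul_self P) k g.a g.b

theorem u_ne_swap {k : ℕ} (h0 : k ≠ 0) (hk : k < g.n) : g.u k ≠ g.swap.u k := by
  intro h
  have := g.u_mul_inv k
  rw [h, mul_inv_cancel] at this
  exact absurd (orderOf_le_of_pow_eq_one (Nat.pos_of_ne_zero h0) this.symm) (not_le.2 hk)

theorem u_eq_swap : g.u g.n = g.swap.u g.n := by
  have := g.u_mul_inv g.n
  rwa [n, pow_orderOf_eq_one, mul_inv_eq_one] at this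

theorem len_u_le (k : ℕ) : len P (g.u k) ≤ k := by
  have h := len_le P (L := altWord g.a g.b k) (w := g.u k) rfl
  rwa [altWord_length] at h

theorem eq_u_or (m : ℕ) : ∀ w : Weyl P, len P w = m → w = g.u m ∨ w = g.swap.u m := by
  induction m with
  | zero =>
    intro w hw
    obtain ⟨L, hL, hl⟩ := exists_reduced P w
    rw [hw, List.length_eq_zero_iff] at hl
    subst hl
    exact Or.inl hL.symm
  | succ m ih =>
    intro w hw
    obtain ⟨L, hL, hl⟩ := exists_reduced P w
    obtain ⟨s, L', rfl⟩ := List.exists_cons_of_length_eq_add_one (hl.trans hw)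
    rw [wordProd_cons] at hL
    simp only [List.length_cons, hw, Nat.add_right_cancel_iff] at hl
    have hle : len P (wordProd P L') ≤ m := hl ▸ len_le P rfl
    have hge : len P w ≤ len P (wordProd P L') + 1 := hL ▸ len_gen_mul_le P s _
    have key : ∀ g : GenPair P, s = g.a → wordProd P L' = g.u m → w = g.u (m + 1) := by
      intro g hs hu
      rcases Nat.eq_zero_or_pos m with rfl | hm
      · rw [u_succ, u_zero, ← hL, hu, u_zero, hs]
      · obtain ⟨m', rfl⟩ : ∃ m', m = m' + 1 := ⟨m - 1, by omega⟩
        rw [← hL, hs, hu, g.gen_a_mul_u] at hw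
        have := g.swap.len_u_le m'
        omega
    rcases g.all s with hs | hs <;> rcases ih _ (show len P (wordProd P L') = m by omega) with h | h
    · exact Or.inl (key g hs h)
    · exact Or.inl (by rw [u_succ, ← hL, hs, h])
    · exact Or.inr (by rw [u_succ, swap_swap, ← hL, hs, h]; rfl)
    · exact Or.inr (key g.swap hs h)

theorem len_u (k : ℕ) : ∀ g : GenPair P, k ≤ g.n → len P (g.u k) = k := by
  induction k with
  | zero => intro g _; exact len_one P
  | succ k ih =>
    intro g hk
    have hv : len P (g.swap.u k) = k := ih g.swap (by rw [n_swap]; omega)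
    rw [u_succ]
    rcases len_gen_mul_cases P g.a (g.swap.u k) with h | h
    · omega
    · exfalso
      rw [hv] at h
      obtain ⟨j, rfl⟩ : ∃ j, k = j + 1 := ⟨k - 1, by omega⟩
      rcases g.eq_u_or j _ (Nat.add_right_cancel h) with e | e
      · have e2 : g.swap.u (j + 1) = gen P g.a * g.u j := by rw [← e, gen_mul_gen_mul]
        rcases j with _ | i
        · rw [u_succ, u_zero, u_zero] at e2
          simp only [mul_one] at e2
          exact g.ne.symm (gen_injective P e2)
        · rw [g.gen_a_mul_u] at e2
          have := g.swap.len_u_le i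
          rw [← e2] at this
          omega
      · have e2 : g.swap.u (j + 1) = g.u (j + 1) := by
          rw [g.u_succ, ← e, gen_mul_gen_mul]
        exact g.u_ne_swap (Nat.succ_ne_zero j) (by omega) e2.symm

variable [Finite G]

theorem n_pos : 0 < g.n := orderOf_pos _

theorem two_le_n : 2 ≤ g.n := by
  have := g.n_pos
  have : g.n ≠ 1 := by
    intro h
    rw [n, orderOf_eq_one_iff, mul_eq_one_iff_eq_inv, gen_inv] at h
    exact g.ne (gen_injective P h)
  omega

theorem mem_list (w : Weyl P) : ∃ j ≤ g.n, w = g.u j ∨ w = g.swap.u j := by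
  obtain ⟨L, rfl⟩ := exists_word P w
  induction L with
  | nil => exact ⟨0, Nat.zero_le _, Or.inl rfl⟩
  | cons s L ih =>
    obtain ⟨j, hj, hw⟩ := ih
    have key : ∀ g : GenPair P, s = g.a → j ≤ g.n → wordProd P L = g.u j ∨ wordProd P L = g.swap.u j →
        ∃ j ≤ g.n, wordProd P (s :: L) = g.u j ∨ wordProd P (s :: L) = g.swap.u j := by
      intro g hs hj hw
      rw [wordProd_cons, hs]
      rcases hw with hw | hw
      · rw [hw]
        rcases j with _ | i
        · exact ⟨1, g.n_pos, Or.inl (by rw [u_zero, u_succ, u_zero])⟩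
        · exact ⟨i, by omega, Or.inr (g.gen_a_mul_u i)⟩
      · rw [hw]
        rcases hj.eq_or_lt with rfl | hlt
        · obtain ⟨i, hi⟩ : ∃ i, g.n = i + 1 := ⟨g.n - 1, by have := g.n_pos; omega⟩
          refine ⟨i, by omega, Or.inr ?_⟩
          rw [← g.u_eq_swap, hi, g.gen_a_mul_u]
        · exact ⟨j + 1, hlt, Or.inl (g.u_succ j).symm⟩
    rcases g.all s with hs | hs
    · exact key g hs hj hw
    · obtain ⟨i, hi, h⟩ := key g.swap hs (by rw [n_swap]; exact hj) hw.symm
      exact ⟨i, by rwa [n_swap] at hi, h.symm⟩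

theorem card_weyl : Nat.card (Weyl P) = 2 * g.n := by
  let f : Fin (2 * g.n) → Weyl P := fun i => if i.1 ≤ g.n then g.u i else g.swap.u (i - g.n)
  have hs : ∀ j, j ≤ g.n → len P (g.swap.u j) = j := fun j hj => len_u j g.swap (by rwa [n_swap])
  have hbij : Function.Bijective f := by
    refine ⟨fun i j h => ?_, fun w => ?_⟩
    · have hi := i.2
      have hj := j.2
      simp only [f] at h
      split_ifs at h with h1 h2 h2
      · have := congrArg (len P) h
        rw [len_u _ g h1, len_u _ g h2] at this
        exact Fin.ext this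
      · exfalso
        have := congrArg (len P) h
        rw [len_u _ g h1, hs _ (by omega)] at this
        rw [← this] at h
        exact g.u_ne_swap (by omega) (by omega) h
      · exfalso
        have := congrArg (len P) h
        rw [len_u _ g h2, hs _ (by omega)] at this
        rw [this] at h
        exact g.u_ne_swap (by omega) (by omega) h.symm
      · have := congrArg (len P) h
        rw [hs _ (by omega), hs _ (by omega)] at this
        exact Fin.ext (by omega)
    · obtain ⟨j, hj, hw⟩ := g.mem_list w
      have := g.n_pos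
      rcases hw with rfl | rfl
      · exact ⟨⟨j, by omega⟩, if_pos hj⟩
      · rcases Nat.eq_zero_or_pos j with rfl | hj0
        · exact ⟨⟨0, by omega⟩, (if_pos (Nat.zero_le _)).trans rfl⟩
        · rcases hj.eq_or_lt with rfl | hlt
          · exact ⟨⟨g.n, by omega⟩, (if_pos le_rfl).trans g.u_eq_swap⟩
          · refine ⟨⟨g.n + j, by omega⟩, (if_neg (by simp; omega)).trans ?_⟩
            simp
  rw [← Nat.card_eq_of_bijective f hbij, Nat.card_eq_fintype_card, Fintype.card_fin]

set_option linter.unusedSectionVars false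
variable [Fintype (G ⧸ P.B)] [DecidableEq (G ⧸ P.B)]

/-- The operator of the first generator. -/
noncomputable def R : Matrix (G ⧸ P.B) (G ⧸ P.B) ℝ := cellMatrix P (gen P g.a)

/-- The operator of the second generator. -/
noncomputable def T : Matrix (G ⧸ P.B) (G ⧸ P.B) ℝ := cellMatrix P (gen P g.b)

theorem swap_R : g.swap.R = g.T := rfl

theorem swap_T : g.swap.T = g.R := rfl

theorem cell_u_succ {k : ℕ} (hk : k < g.n) :
    cellMatrix P (g.u (k + 1)) = g.R * cellMatrix P (g.swap.u k) := by
  rw [R, u_succ, cellMatrix_gen_mul]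
  rw [← u_succ, len_u _ g hk, len_u k g.swap (by rw [n_swap]; omega)]
  omega

theorem T_mul_cell {k : ℕ} (hk : k < g.n) :
    g.T * cellMatrix P (g.u k) = cellMatrix P (g.swap.u (k + 1)) :=
  (g.swap.cell_u_succ (k := k) (by rw [n_swap]; exact hk)).symm

theorem cell_u_zero : cellMatrix P (g.u 0) = 1 := cellMatrix_one P

theorem cell_u_even (i : ℕ) : 2 * i ≤ g.n → cellMatrix P (g.u (2 * i)) = (g.R * g.T) ^ i := by
  induction i with
  | zero => intro _; rw [pow_zero]; exact g.cell_u_zero
  | succ i ih =>
    intro h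
    rw [show 2 * (i + 1) = 2 * i + 1 + 1 by ring, g.cell_u_succ (by omega),
      g.swap.cell_u_succ (by rw [n_swap]; omega), swap_swap, swap_R, ih (by omega), pow_succ',
      mul_assoc]

theorem cell_u_odd (i : ℕ) :
    2 * i + 1 ≤ g.n → cellMatrix P (g.u (2 * i + 1)) = (g.R * g.T) ^ i * g.R := by
  induction i with
  | zero =>
    intro h
    rw [g.cell_u_succ (by omega), mul_zero, g.swap.cell_u_zero, mul_one, pow_zero, one_mul]
  | succ i ih =>
    intro h
    rw [show 2 * (i + 1) + 1 = 2 * i + 1 + 1 + 1 by ring, g.cell_u_succ (by omega),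
      g.swap.cell_u_succ (by rw [n_swap]; omega), swap_swap, swap_R, ih (by omega), pow_succ']
    simp only [mul_assoc]

end GenPair

end CfsgLib.FeitHigman
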