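import Cfsg.Agent.FeitHigman.Algebra
import Cfsg.Agent.FeitHigman.Dihedral

/-! The theorem of Feit and Higman for (B, N)-pairs of rank two. -/

set_option autoImplicit false

namespace CfsgLib.FeitHigman

open CfsgLib.BNPair Polynomial Real
open Polynomial.Chebyshev (S)

/-- The rational numbers inside the reals. -/
noncomputable def ratReals : Subfield ℝ := (Rat.castHom ℝ).fieldRange

theorem mem_ratReals {x : ℝ} : x ∈ ratReals ↔ ∃ q : ℚ, x = q := by
  rw [ratReals, RingHom.mem_fieldRange]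
  exact ⟨fun ⟨q, h⟩ => ⟨q, h.symm⟩, fun ⟨q, h⟩ => ⟨q, h.symm⟩⟩

theorem natCast_mem_ratReals (n : ℕ) : (n : ℝ) ∈ ratReals := natCast_mem _ n

theorem ofNat_mem_ratReals (n : ℕ) [n.AtLeastTwo] :
    (OfNat.ofNat n : ℝ) ∈ ratReals := by
  rw [← Nat.cast_ofNat]; exact natCast_mem_ratReals _

/-- A root of the polynomials in question. -/
noncomputable def angle (j m : ℕ) : ℝ := 2 * cos (π * j / m)

theorem sin_angle_pos {j m : ℕ} (h0 : 0 < j) (h : j < m) : 0 < sin (π * j / m) := by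
  have hm : (0 : ℝ) < m := by exact_mod_cast h0.trans h
  refine sin_pos_of_pos_of_lt_pi (by positivity) ?_
  rw [div_lt_iff₀ hm]
  exact mul_lt_mul_of_pos_left (by exact_mod_cast h) pi_pos

theorem angle_sq_lt {j m : ℕ} (h0 : 0 < j) (h : j < m) : angle j m ^ 2 < 4 := by
  have := sin_angle_pos h0 h
  rw [angle]
  nlinarith [sin_sq_add_cos_sq (π * j / m), mul_pos this this]

theorem angle_root_even {j D : ℕ} (h0 : 0 < j) (h : j < D + 1) :
    (S ℝ (D : ℤ)).eval (angle j (D + 1)) = 0 := by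
  refine (mul_eq_zero.1 ?_).resolve_right (sin_angle_pos h0 h).ne'
  rw [angle, Polynomial.Chebyshev.S_two_mul_real_cos]
  have : (((D : ℤ) : ℝ) + 1) * (π * j / ((D + 1 : ℕ) : ℝ)) = (j : ℕ) * π := by
    push_cast; field_simp
  rw [this, sin_nat_mul_pi]

theorem angle_root_odd (D : ℕ) :
    (S ℝ ((D + 1 : ℕ) : ℤ) + S ℝ (((D + 1 : ℕ) : ℤ) - 1)).eval (angle 2 (2 * D + 3)) = 0 := by
  refine (mul_eq_zero.1 ?_).resolve_right (sin_angle_pos two_pos (by omega : 2 < 2 * D + 3)).ne'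
  rw [angle, eval_add, add_mul, Polynomial.Chebyshev.S_two_mul_real_cos,
    Polynomial.Chebyshev.S_two_mul_real_cos]
  have : ((((D + 1 : ℕ) : ℤ) : ℝ) + 1) * (π * ((2 : ℕ) : ℝ) / ((2 * D + 3 : ℕ) : ℝ)) =
      2 * π - (((((D + 1 : ℕ) : ℤ) - 1 : ℤ) : ℝ) + 1) * (π * ((2 : ℕ) : ℝ) / ((2 * D + 3 : ℕ) : ℝ)) := by
    push_cast; field_simp; ring
  rw [this, sin_two_pi_sub]
  ring

theorem neg_angle {j m : ℕ} (h : j < m) : -angle j m = angle (m - j) m := by
  have hm : (m : ℝ) ≠ 0 := Nat.cast_ne_zero.2 (by omega)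
  rw [angle, angle, Nat.cast_sub h.le, mul_sub, sub_div, mul_div_assoc π (m : ℝ), div_self hm,
    mul_one, cos_pi_sub]
  ring

/-- Niven's theorem for the angle `2π/m`. -/
theorem small_of_rat_angle {m : ℕ} (hm : 3 ≤ m) (h : angle 2 m ∈ ratReals) :
    m = 3 ∨ m = 4 ∨ m = 6 := by
  have hmQ : (0 : ℚ) < m := by exact_mod_cast (show 0 < m by omega)
  obtain ⟨q, hq⟩ := mem_ratReals.1 (div_mem h (ofNat_mem_ratReals 2))
  have hcos : ∃ q : ℚ, cos ((((2 : ℚ) / m : ℚ) : ℝ) * π) = q := by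
    refine ⟨q, ?_⟩
    rw [← hq, angle]; push_cast; ring_nf
  have h01 : ((2 : ℚ) / m) ∈ Set.Icc (0 : ℚ) 1 :=
    ⟨by positivity, by rw [div_le_one hmQ]; exact_mod_cast (show 2 ≤ m by omega)⟩
  have := niven_angle_div_pi_eq hcos h01
  simp only [Set.mem_insert_iff, Set.mem_singleton_iff, div_eq_iff hmQ.ne'] at this
  rcases this with h | h | h | h | h
  · linarith
  · have : (m : ℚ) = 6 := by linarith
    norm_cast at this; omega
  · have : (m : ℚ) = 4 := by linarith
    norm_cast at this; omega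
  · have : (m : ℚ) = 3 := by linarith
    norm_cast at this; omega
  · have : (m : ℚ) = 2 := by linarith
    norm_cast at this; omega

section
variable {A : Type*} [Ring A] [Algebra ℝ A] (H : Data A)

theorem Data.sq_a_mem (ht : H.t ∈ ratReals) (hq : H.q ∈ ratReals) : H.a ^ 2 ∈ ratReals := by
  rw [Data.a, div_pow, pow_two H.σ, H.σ_sq]
  exact div_mem (pow_mem (sub_mem ht (one_mem _)) 2) (mul_mem ht hq)

theorem Data.b_pos : 0 < H.a * (H.q - 1) :=
  mul_pos (div_pos (by linarith [H.two_le_t]) H.σ_pos) (by linarith [H.two_le_q])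

theorem Data.const_lt : -H.q - H.q⁻¹ - H.q * H.a ^ 2 - 2 < -4 := by
  have hq := H.q_pos
  have h2 := H.two_le_q
  have : 0 < H.q⁻¹ := inv_pos.2 hq
  have : 0 ≤ H.q * H.a ^ 2 := mul_nonneg hq.le (sq_nonneg _)
  linarith

theorem Data.const_mem (ht : H.t ∈ ratReals) (hq : H.q ∈ ratReals) :
    -H.q - H.q⁻¹ - H.q * H.a ^ 2 - 2 ∈ ratReals :=
  sub_mem (sub_mem (sub_mem (neg_mem hq) (inv_mem hq)) (mul_mem hq (H.sq_a_mem ht hq)))
    (ofNat_mem_ratReals 2)

/-- What the multiplicities of `θ` and `-θ` give. -/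
theorem Data.even_pair {D : ℕ} (hD : 1 ≤ D) (hd : H.d = D + 1)
    (hb : H.T * H.W D = H.W D * H.T) (hN : 0 < H.N) (hNr : H.N ∈ ratReals) {j : ℕ} (h0 : 0 < j)
    (hj : j < D + 1) (ht : H.t ∈ ratReals) (hq : H.q ∈ ratReals) :
    angle j (D + 1) ^ 2 ∈ ratReals ∧ H.a * (H.q - 1) * angle j (D + 1) ∈ ratReals := by
  set θ := angle j (D + 1) with hθ
  have hlt : θ ^ 2 < 4 := angle_sq_lt h0 hj
  obtain ⟨m, hm⟩ := H.even_multiplicity hD hd hb (angle_root_even h0 hj) hlt
  obtain ⟨m', hm'⟩ := H.even_multiplicity hD hd hb (θ := -θ)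
    (by rw [hθ, neg_angle hj]; exact angle_root_even (by omega) (by omega)) (by rwa [neg_sq])
  rw [neg_sq, mul_neg, sub_neg_eq_add] at hm'
  set b := H.a * (H.q - 1)
  set P := -H.q - H.q⁻¹ - H.q * H.a ^ 2 - 2 with hP
  have hne : H.N * (θ ^ 2 - 4) ≠ 0 := mul_ne_zero hN.ne' (by linarith)
  have hM : (m : ℝ) ≠ 0 := fun h => hne (by rw [hm, h]; ring)
  have hM' : (m' : ℝ) ≠ 0 := fun h => hne (by rw [hm', h]; ring)
  have hD1 : (2 * ((D : ℝ) + 1)) ≠ 0 := by positivity
  set A₁ := H.N / (2 * ((D : ℝ) + 1) * m) with hA₁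
  set A₂ := H.N / (2 * ((D : ℝ) + 1) * m') with hA₂
  have hA₁r : A₁ ∈ ratReals := div_mem hNr (mul_mem (mul_mem (ofNat_mem_ratReals 2)
    (add_mem (natCast_mem_ratReals _) (one_mem _))) (natCast_mem_ratReals _))
  have hA₂r : A₂ ∈ ratReals := div_mem hNr (mul_mem (mul_mem (ofNat_mem_ratReals 2)
    (add_mem (natCast_mem_ratReals _) (one_mem _))) (natCast_mem_ratReals _))
  have e1 : A₁ * (θ ^ 2 - 4) = θ ^ 2 - b * θ + P := by
    rw [hA₁, div_mul_eq_mul_div, div_eq_iff (mul_ne_zero hD1 hM)]; linear_combination hm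
  have e2 : A₂ * (θ ^ 2 - 4) = θ ^ 2 + b * θ + P := by
    rw [hA₂, div_mul_eq_mul_div, div_eq_iff (mul_ne_zero hD1 hM')]; linear_combination hm'
  have hK : A₁ + A₂ - 2 ≠ 0 := fun h => by
    have : P = -4 := by linear_combination (θ ^ 2 - 4) / 2 * h - (e1 + e2) / 2
    linarith [H.const_lt]
  have hsq : θ ^ 2 = (4 * (A₁ + A₂) + 2 * P) / (A₁ + A₂ - 2) := by
    rw [eq_div_iff hK]; linear_combination e1 + e2
  have hsqr : θ ^ 2 ∈ ratReals := by
    rw [hsq]
    exact div_mem (add_mem (mul_mem (ofNat_mem_ratReals 4) (add_mem hA₁r hA₂r))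
      (mul_mem (ofNat_mem_ratReals 2) (H.const_mem ht hq)))
      (sub_mem (add_mem hA₁r hA₂r) (ofNat_mem_ratReals 2))
  refine ⟨hsqr, ?_⟩
  rw [show b * θ = (A₂ - A₁) * (θ ^ 2 - 4) / 2 by linear_combination (e1 - e2) / 2]
  exact div_mem (mul_mem (sub_mem hA₂r hA₁r) (sub_mem hsqr (ofNat_mem_ratReals 4)))
    (ofNat_mem_ratReals 2)

theorem sqrt_three_not_mem : Real.sqrt 3 ∉ ratReals := by
  intro h
  obtain ⟨q, hq⟩ := mem_ratReals.1 h
  exact (Nat.Prime.irrational_sqrt (p := 3) Nat.prime_three) ⟨q, by push_cast; exact hq.symm⟩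

/-- The numerical conclusion for even polygons. -/
theorem Data.even_conclusion {D : ℕ} (hD : 1 ≤ D) (hd : H.d = D + 1)
    (hb : H.T * H.W D = H.W D * H.T) (hN : 0 < H.N) (hNr : H.N ∈ ratReals)
    (ht : H.t ∈ ratReals) (hq : H.q ∈ ratReals) : D = 1 ∨ D = 2 ∨ D = 3 := by
  have h1 := (H.even_pair hD hd hb hN hNr (j := 1) one_pos (by omega) ht hq).1
  rcases Nat.lt_or_ge D 2 with h | h
  · omega
  have h2 : angle 2 (D + 1) ∈ ratReals := by
    have : angle 2 (D + 1) = angle 1 (D + 1) ^ 2 - 2 := by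
      rw [angle, angle, show π * ((2 : ℕ) : ℝ) / ((D + 1 : ℕ) : ℝ) =
        2 * (π * ((1 : ℕ) : ℝ) / ((D + 1 : ℕ) : ℝ)) by push_cast; ring, cos_two_mul]
      ring
    rw [this]; exact sub_mem h1 (ofNat_mem_ratReals 2)
  rcases small_of_rat_angle (by omega) h2 with h6 | h6 | h6
  · omega
  · omega
  exfalso
  have ha := (H.even_pair hD hd hb hN hNr (j := 1) one_pos (by omega) ht hq).2
  have hb' := (H.even_pair hD hd hb hN hNr (j := 2) two_pos (by omega) ht hq).2
  have e1 : angle 1 (D + 1) = Real.sqrt 3 := by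
    rw [h6, angle, show π * ((1 : ℕ) : ℝ) / ((6 : ℕ) : ℝ) = π / 6 by push_cast; ring, cos_pi_div_six]
    ring
  have e2 : angle 2 (D + 1) = 1 := by
    rw [h6, angle, show π * ((2 : ℕ) : ℝ) / ((6 : ℕ) : ℝ) = π / 3 by push_cast; ring,
      cos_pi_div_three]
    norm_num
  rw [e1] at ha
  rw [e2, mul_one] at hb'
  refine sqrt_three_not_mem ?_
  rw [show Real.sqrt 3 = H.a * (H.q - 1) * Real.sqrt 3 / (H.a * (H.q - 1)) from
    (mul_div_cancel_left₀ _ H.b_pos.ne').symm]
  exact div_mem ha hb'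

/-- The numerical conclusion for odd polygons. -/
theorem Data.odd_conclusion {D : ℕ} (hd : H.d = D + 1) (htq : H.t = H.q)
    (hb : H.W (D + 1) = H.T * (H.R * H.T) ^ (D + 1)) (hN : 0 < H.N) (hNr : H.N ∈ ratReals)
    (hq : H.q ∈ ratReals) : D = 0 := by
  by_contra hD
  set θ := angle 2 (2 * D + 3) with hθ
  obtain ⟨m, hm⟩ := H.odd_multiplicity hd htq hb (angle_root_odd D)
    (angle_sq_lt two_pos (by omega : 2 < 2 * D + 3))
  set e := H.q + H.q⁻¹ with he
  have he2 : 2 < e := by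
    have := H.two_le_q
    have := inv_pos.2 H.q_pos
    linarith
  set K := (2 * ((D : ℝ) + 1) + 1) * m with hK
  have hne : K - H.N ≠ 0 := by
    intro h
    have : H.N * (e - 2) = 0 := by linear_combination (θ - e) * h - hm
    exact absurd this (mul_ne_zero hN.ne' (by linarith))
  have hKr : K ∈ ratReals := mul_mem (add_mem (mul_mem (ofNat_mem_ratReals 2)
    (add_mem (natCast_mem_ratReals _) (one_mem _))) (one_mem _)) (natCast_mem_ratReals _)
  have hθe : θ = (K * e - 2 * H.N) / (K - H.N) := by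
    rw [eq_div_iff hne]; linear_combination hm
  have hθr : θ ∈ ratReals := by
    rw [hθe]
    exact div_mem (sub_mem (mul_mem hKr (add_mem hq (inv_mem hq)))
      (mul_mem (ofNat_mem_ratReals 2) hNr)) (sub_mem hKr hNr)
  rcases small_of_rat_angle (by omega) hθr with h | h | h <;> omega

end

variable {G : Type*} [Group G] [Finite G] {P : Cfsg.BNPair G} (g : GenPair P)

theorem n_mem : g.n ∈ ({2, 3, 4, 6, 8} : Set ℕ) := by
  classical
  have : Fintype (G ⧸ P.B) := Fintype.ofFinite _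
  have hu1 : ∀ (g : GenPair P) (k : ℕ), 0 < k → k ≤ g.n → (cellMatrix P (g.u k)).trace = 0 := by
    intro g k hk hkn
    refine trace_cellMatrix P fun h => ?_
    have := g.len_u k hkn
    rw [h, len_one] at this
    omega
  let H : Data (Matrix (G ⧸ P.B) (G ⧸ P.B) ℝ) :=
    { R := g.R
      T := g.T
      t := qNum P g.a
      q := qNum P g.b
      N := Fintype.card (G ⧸ P.B)
      d := g.n / 2
      tr := Matrix.traceLinearMap _ ℝ ℝ
      two_le_t := by exact_mod_cast two_le_qNum P g.a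
      two_le_q := by exact_mod_cast two_le_qNum P g.b
      R_sq := cellMatrix_gen_sq P g.a
      T_sq := cellMatrix_gen_sq P g.b
      tr_comm := fun x y => Matrix.trace_mul_comm x y
      tr_one := Matrix.trace_one
      tr_T := trace_cellMatrix P (gen_ne_one P g.b)
      tr_word := fun i hi => by
        rw [Matrix.traceLinearMap_apply, ← g.cell_u_odd i (by omega)]
        exact hu1 g _ (by omega) (by omega)
      tr_word' := fun i hi => by
        rw [Matrix.traceLinearMap_apply, ← g.cell_u_odd i (by omega), g.T_mul_cell (by omega)]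
        exact hu1 g.swap _ (by omega) (by rw [g.n_swap]; omega)
      idem := fun x hx => exists_nat_trace_of_idem x hx }
  have hN : 0 < H.N := by
    show (0 : ℝ) < (Fintype.card (G ⧸ P.B) : ℕ)
    exact_mod_cast Fintype.card_pos
  have hNr : H.N ∈ ratReals := natCast_mem_ratReals _
  have ht : H.t ∈ ratReals := natCast_mem_ratReals _
  have hq : H.q ∈ ratReals := natCast_mem_ratReals _
  have hn2 := g.two_le_n
  rcases Nat.even_or_odd' g.n with ⟨c, hc | hc⟩
  · rcases Nat.lt_or_ge c 2 with h | h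
    · rw [hc, show c = 1 by omega]; simp
    obtain ⟨D, rfl⟩ : ∃ D, c = D + 1 := ⟨c - 1, by omega⟩
    have hd : H.d = D + 1 := by show g.n / 2 = D + 1; omega
    have hb : H.T * H.W D = H.W D * H.T := by
      show g.T * ((g.R * g.T) ^ D * g.R) = (g.R * g.T) ^ D * g.R * g.T
      rw [← g.cell_u_odd D (by omega)]
      conv_lhs => rw [g.T_mul_cell (k := 2 * D + 1) (by omega),
        show 2 * D + 1 + 1 = g.n by omega, ← g.u_eq_swap, show g.n = 2 * (D + 1) by omega,
        g.cell_u_even (D + 1) (by omega)]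
      rw [g.cell_u_odd D (by omega), pow_succ, mul_assoc]
    rcases H.even_conclusion (by omega) hd hb hN hNr ht hq with h' | h' | h' <;>
      rw [hc, h'] <;> simp
  · obtain ⟨D, rfl⟩ : ∃ D, c = D + 1 := ⟨c - 1, by omega⟩
    have hd : H.d = D + 1 := by show g.n / 2 = D + 1; omega
    have hn : g.n = 2 * (D + 1) + 1 := hc
    have hb0 : (g.R * g.T) ^ (D + 1) * g.R = g.T * (g.R * g.T) ^ (D + 1) := by
      rw [← g.cell_u_odd (D + 1) (by omega), ← g.cell_u_even (D + 1) (by omega),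
        g.T_mul_cell (k := 2 * (D + 1)) (by omega), ← hn, ← g.u_eq_swap]
    have htq : H.t = H.q := by
      set Z := (g.R * g.T) ^ (D + 1) with hZ
      have h1 : Z * (g.R * g.R) = (g.T * g.T) * Z := by
        rw [← mul_assoc, hb0, mul_assoc, hb0, ← mul_assoc]
      have hR : g.R * g.R = ((qNum P g.a : ℝ) - 1) • g.R + (qNum P g.a : ℝ) • 1 :=
        cellMatrix_gen_sq P g.a
      have hT : g.T * g.T = ((qNum P g.b : ℝ) - 1) • g.T + (qNum P g.b : ℝ) • 1 :=
        cellMatrix_gen_sq P g.b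
      rw [hR, hT, mul_add, add_mul, mul_smul_comm, mul_smul_comm, smul_mul_assoc, smul_mul_assoc,
        mul_one, one_mul, ← hb0, hZ, ← g.cell_u_odd (D + 1) (by omega),
        ← g.cell_u_even (D + 1) (by omega)] at h1
      obtain ⟨x, hx, hxu⟩ := exists_toW P (g.u (2 * (D + 1) + 1))
      have h2 := congrFun (congrFun h1 (QuotientGroup.mk 1)) (QuotientGroup.mk x)
      have hne : g.u (2 * (D + 1) + 1) ≠ g.u (2 * (D + 1)) := fun h => by
        have := congrArg (len P) h
        rw [g.len_u _ (by omega), g.len_u _ (by omega)] at this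
        omega
      have hmem : (1 : G)⁻¹ * x ∈ cell P (g.u (2 * (D + 1) + 1)) := by
        rw [inv_one, one_mul, ← hxu]; exact self_mem_cell P hx
      simp only [Matrix.add_apply, Matrix.smul_apply, cellMatrix_mk, smul_eq_mul] at h2
      rw [if_pos hmem, if_neg (fun h => hne (eq_of_mem_cell P hmem h))] at h2
      show (qNum P g.a : ℝ) = qNum P g.b
      linarith
    rw [hc, H.odd_conclusion hd htq hb0 hN hNr hq]
    simp

/-- The theorem of Feit and Higman. -/
theorem card_weyl_mem (P : Cfsg.BNPair G) (h2 : P.rank = 2) :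
    Nat.card (Weyl P) ∈ ({4, 6, 8, 12, 16} : Set ℕ) := by
  obtain ⟨a, b, hne, hall⟩ := Nat.card_eq_two_iff.1 h2
  let g : GenPair P := ⟨a, b, hne, fun s => by
    have : s ∈ ({a, b} : Set P.S) := hall ▸ Set.mem_univ s
    simpa using this⟩
  rw [g.card_weyl]
  have := n_mem g
  simp only [Set.mem_insert_iff, Set.mem_singleton_iff] at this ⊢
  omega

end CfsgLib.FeitHigman
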