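import Cfsg.Agent.BNPair.Coxeter
import Mathlib

/-! The operators of a (B, N)-pair on functions on `G ⧸ B`. -/

set_option autoImplicit false

namespace CfsgLib.FeitHigman

open CfsgLib.BNPair

open scoped Classical in
/-- The operator of a double coset. -/
noncomputable def cellMatrix {G : Type*} [Group G] (P : Cfsg.BNPair G) (w : Weyl P) :
    Matrix (G ⧸ P.B) (G ⧸ P.B) ℝ :=
  Matrix.of fun x y => if x.out⁻¹ * y.out ∈ cell P w then 1 else 0

variable {G : Type*} [Group G] (P : Cfsg.BNPair G)

theorem out_mul_mem_iff (w : Weyl P) (g h : G) :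
    ((QuotientGroup.mk g : G ⧸ P.B).out⁻¹ * (QuotientGroup.mk h : G ⧸ P.B).out ∈ cell P w) ↔
      g⁻¹ * h ∈ cell P w := by
  obtain ⟨b, hb⟩ := QuotientGroup.mk_out_eq_mul P.B g
  obtain ⟨c, hc⟩ := QuotientGroup.mk_out_eq_mul P.B h
  rw [hb, hc]
  constructor <;> intro hm
  · have := cell_mul_left P b.2 (cell_mul_right P (inv_mem c.2) hm)
    simpa [mul_assoc] using this
  · have := cell_mul_left P (inv_mem b.2) (cell_mul_right P c.2 hm)
    simpa [mul_assoc] using this

open scoped Classical in
theorem cellMatrix_mk (w : Weyl P) (g h : G) :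
    cellMatrix P w (QuotientGroup.mk g) (QuotientGroup.mk h) =
      if g⁻¹ * h ∈ cell P w then 1 else 0 := by
  rw [cellMatrix, Matrix.of_apply, out_mul_mem_iff]

theorem mk_eq_mk_iff (g h : G) :
    (QuotientGroup.mk g : G ⧸ P.B) = QuotientGroup.mk h ↔ g⁻¹ * h ∈ cell P 1 := by
  rw [cell_one]; exact QuotientGroup.eq

theorem cellMatrix_one [DecidableEq (G ⧸ P.B)] : cellMatrix P 1 = 1 := by
  classical
  ext x y
  induction x using QuotientGroup.induction_on with
  | _ g =>
    induction y using QuotientGroup.induction_on with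
    | _ h =>
      rw [cellMatrix_mk, Matrix.one_apply]
      simp only [mk_eq_mk_iff]

theorem cellMatrix_self {w : Weyl P} (hw : w ≠ 1) (x : G ⧸ P.B) : cellMatrix P w x x = 0 := by
  induction x using QuotientGroup.induction_on with
  | _ g =>
    classical
    rw [cellMatrix_mk, if_neg]
    rw [inv_mul_cancel]
    exact fun h => hw (eq_of_mem_cell P h (by rw [cell_one]; exact one_mem _))

/-- The part of a right coset space through which a path of two steps runs. -/
def paths (v w : Weyl P) (g h : G) : Set (G ⧸ P.B) :=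
  {y | g⁻¹ * y.out ∈ cell P v ∧ y.out⁻¹ * h ∈ cell P w}

theorem mk_mem_paths (v w : Weyl P) (g h k : G) :
    (QuotientGroup.mk k : G ⧸ P.B) ∈ paths P v w g h ↔
      g⁻¹ * k ∈ cell P v ∧ k⁻¹ * h ∈ cell P w := by
  obtain ⟨b, hb⟩ := QuotientGroup.mk_out_eq_mul P.B k
  simp only [paths, Set.mem_ofPred_eq, hb]
  constructor <;> rintro ⟨h1, h2⟩
  · refine ⟨?_, ?_⟩
    · have := cell_mul_right P (inv_mem b.2) h1; simpa [mul_assoc] using this
    · have := cell_mul_left P b.2 h2; simpa [mul_assoc] using this
  · refine ⟨?_, ?_⟩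
    · have := cell_mul_right P b.2 h1; simpa [mul_assoc] using this
    · have := cell_mul_left P (inv_mem b.2) h2; simpa [mul_assoc] using this

theorem cellMatrix_mul_apply [Fintype (G ⧸ P.B)] (v w : Weyl P) (g h : G) :
    (cellMatrix P v * cellMatrix P w) (QuotientGroup.mk g) (QuotientGroup.mk h) =
      (paths P v w g h).ncard := by
  classical
  rw [Matrix.mul_apply, ← Nat.card_coe_set_eq, Nat.card_eq_fintype_card, Fintype.card_subtype,
    Finset.card_filter]
  push_cast
  refine Finset.sum_congr rfl fun y _ => ?_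
  induction y using QuotientGroup.induction_on with
  | _ k =>
    rw [cellMatrix_mk, cellMatrix_mk, mk_mem_paths]
    split_ifs with h1 h2 h3 <;> simp_all

theorem paths_eq_singleton (s : P.S) {w : Weyl P} (hle : len P w ≤ len P (gen P s * w)) {g h : G}
    (hgh : g⁻¹ * h ∈ cell P (gen P s * w)) :
    ∃ y, paths P (gen P s) w g h = {y} := by
  obtain ⟨n, hn, rfl⟩ := exists_toW P w
  rw [gen, ← toW_mul, mem_cell_toW, mem_dc] at hgh
  obtain ⟨b, hb, c, hc, e⟩ := hgh
  have hmem : (QuotientGroup.mk (g * (b * s.1)) : G ⧸ P.B) ∈ paths P (gen P s) (toW P n hn) g h := by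
    rw [mk_mem_paths]
    refine ⟨?_, ?_⟩
    · rw [inv_mul_cancel_left]; exact cell_mul_left P hb (self_mem_cell_gen P s)
    · have : (g * (b * s.1))⁻¹ * h = n * c := by
        rw [mul_inv_rev, mul_assoc, e]; group
      rw [this]; exact cell_mul_right P hc (self_mem_cell P hn)
  refine ⟨_, Set.eq_singleton_iff_unique_mem.2 ⟨hmem, fun y hy => ?_⟩⟩
  induction y using QuotientGroup.induction_on with
  | _ k =>
    set k' := g * (b * s.1) with hk'
    rw [mk_mem_paths] at hy hmem
    rw [mk_eq_mk_iff]
    have h1 := cell_gen_mul P s (gen_inv P s ▸ inv_mem_cell P hy.1) hmem.1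
    rw [gen_mul_self, show (g⁻¹ * k)⁻¹ * (g⁻¹ * k') = k⁻¹ * k' by group] at h1
    refine h1.resolve_right fun h2 => ?_
    have h3 := cell_gen_mul_of_le P s hle h2 hmem.2
    rw [show k⁻¹ * k' * (k'⁻¹ * h) = k⁻¹ * h by group] at h3
    exact gen_ne_one P s (mul_eq_right.1 (eq_of_mem_cell P h3 hy.2))

theorem cellMatrix_gen_mul [Fintype (G ⧸ P.B)] (s : P.S) {w : Weyl P}
    (hle : len P w ≤ len P (gen P s * w)) :
    cellMatrix P (gen P s) * cellMatrix P w = cellMatrix P (gen P s * w) := by
  ext x z
  induction x using QuotientGroup.induction_on with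
  | _ g =>
    induction z using QuotientGroup.induction_on with
    | _ h =>
      rw [cellMatrix_mul_apply, cellMatrix_mk]
      split_ifs with hgh
      · obtain ⟨y, hy⟩ := paths_eq_singleton P s hle hgh
        rw [hy, Set.ncard_singleton, Nat.cast_one]
      · rw [Nat.cast_eq_zero, Set.ncard_eq_zero (Set.toFinite _), Set.eq_empty_iff_forall_notMem]
        intro y hy
        induction y using QuotientGroup.induction_on with
        | _ k =>
          rw [mk_mem_paths] at hy
          refine hgh ?_
          have := cell_gen_mul_of_le P s hle hy.1 hy.2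
          rwa [show g⁻¹ * k * (k⁻¹ * h) = g⁻¹ * h by group] at this

/-- The number of cosets in `B s B`. -/
noncomputable def qNum (s : P.S) : ℕ := (paths P (gen P s) (gen P s) 1 1).ncard

theorem paths_translate (v w : Weyl P) (x g h : G) :
    (fun y : G ⧸ P.B => x • y) '' paths P v w g h = paths P v w (x * g) (x * h) := by
  ext y
  induction y using QuotientGroup.induction_on with
  | _ k =>
    rw [Set.mem_image, mk_mem_paths]
    constructor
    · rintro ⟨y', hy', e⟩
      induction y' using QuotientGroup.induction_on with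
      | _ k' =>
        rw [mk_mem_paths] at hy'
        rw [← mk_mem_paths, ← e]
        show (QuotientGroup.mk (x * k') : G ⧸ P.B) ∈ _
        rw [mk_mem_paths]
        simpa [mul_assoc] using hy'
    · intro hk
      refine ⟨QuotientGroup.mk (x⁻¹ * k), ?_, ?_⟩
      · rw [mk_mem_paths]; simpa [mul_assoc] using hk
      · show (QuotientGroup.mk (x * (x⁻¹ * k)) : G ⧸ P.B) = _
        rw [mul_inv_cancel_left]

theorem ncard_paths_translate (v w : Weyl P) (x g h : G) :
    (paths P v w (x * g) (x * h)).ncard = (paths P v w g h).ncard := by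
  rw [← paths_translate, Set.ncard_image_of_injective _ (MulAction.injective x)]

theorem paths_right (v w : Weyl P) (g h : G) {b : G} (hb : b ∈ P.B) :
    paths P v w g (h * b) = paths P v w g h := by
  ext y
  simp only [paths, Set.mem_ofPred_eq, ← mul_assoc]
  refine and_congr_right fun _ => ⟨fun hm => ?_, fun hm => cell_mul_right P hb hm⟩
  have := cell_mul_right P (inv_mem hb) hm
  rwa [mul_inv_cancel_right] at this

theorem paths_left (v w : Weyl P) (g h : G) {b : G} (hb : b ∈ P.B) :
    paths P v w (g * b) h = paths P v w g h := by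
  ext y
  simp only [paths, Set.mem_ofPred_eq, mul_inv_rev, mul_assoc]
  refine and_congr_left fun _ => ⟨fun hm => ?_, fun hm => cell_mul_left P (inv_mem hb) hm⟩
  have := cell_mul_left P hb hm
  rwa [mul_inv_cancel_left] at this

theorem paths_one_self_eq (s : P.S) :
    paths P (gen P s) (gen P s) 1 1 =
      insert (QuotientGroup.mk s.1) (paths P (gen P s) (gen P s) 1 s.1) := by
  ext y
  induction y using QuotientGroup.induction_on with
  | _ k =>
    rw [Set.mem_insert_iff, mk_mem_paths, mk_mem_paths, mk_eq_mk_iff, inv_one, one_mul, mul_one]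
    constructor
    · rintro ⟨h1, h2⟩
      have h3 := cell_gen_mul P s h2 (self_mem_cell_gen P s)
      rw [gen_mul_self] at h3
      rcases h3 with h3 | h3
      · exact Or.inl h3
      · exact Or.inr ⟨h1, h3⟩
    · rintro (h1 | ⟨h1, h2⟩)
      · rw [cell_one] at h1
        have hk : k = s.1 * (k⁻¹ * s.1)⁻¹ := by group
        have hk1 : k ∈ cell P (gen P s) := by
          rw [hk]; exact cell_mul_right P (inv_mem h1) (self_mem_cell_gen P s)
        exact ⟨hk1, gen_inv P s ▸ inv_mem_cell P hk1⟩
      · exact ⟨h1, gen_inv P s ▸ inv_mem_cell P h1⟩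

theorem mk_not_mem_paths (s : P.S) :
    (QuotientGroup.mk s.1 : G ⧸ P.B) ∉ paths P (gen P s) (gen P s) 1 s.1 := by
  rw [mk_mem_paths, inv_mul_cancel]
  rintro ⟨-, h⟩
  exact gen_ne_one P s (eq_of_mem_cell P h (by rw [cell_one]; exact one_mem _))

variable [Finite G]

theorem ncard_paths_gen (s : P.S) {g h : G} (hgh : g⁻¹ * h ∈ cell P (gen P s)) :
    (paths P (gen P s) (gen P s) g h).ncard + 1 = qNum P s := by
  rw [qNum, paths_one_self_eq, Set.ncard_insert_of_notMem (mk_not_mem_paths P s) (Set.toFinite _)]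
  rw [gen, mem_cell_toW, mem_dc] at hgh
  obtain ⟨b, hb, c, hc, e⟩ := hgh
  have := ncard_paths_translate P (gen P s) (gen P s) g⁻¹ g h
  rw [inv_mul_cancel, e, paths_right P _ _ _ _ hc] at this
  have h2 := ncard_paths_translate P (gen P s) (gen P s) b⁻¹ 1 (b * s.1)
  rw [mul_one, inv_mul_cancel_left] at h2
  have h3 := paths_left P (gen P s) (gen P s) 1 s.1 (inv_mem hb)
  rw [one_mul] at h3
  rw [h3] at h2
  omega

theorem two_le_qNum (s : P.S) : 2 ≤ qNum P s := by
  obtain ⟨b, hb, hbs⟩ := exists_mem_cell_gen_sq P s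
  refine (Set.one_lt_ncard_iff (Set.toFinite _)).2
    ⟨QuotientGroup.mk s.1, QuotientGroup.mk (b * s.1), ?_, ?_, ?_⟩
  · rw [mk_mem_paths, inv_one, one_mul, mul_one]
    exact ⟨self_mem_cell_gen P s, gen_inv P s ▸ inv_mem_cell P (self_mem_cell_gen P s)⟩
  · rw [mk_mem_paths, inv_one, one_mul, mul_one]
    have h1 := cell_mul_left P hb (self_mem_cell_gen P s)
    exact ⟨h1, gen_inv P s ▸ inv_mem_cell P h1⟩
  · rw [Ne, mk_eq_mk_iff, cell_one]
    intro h
    have h2 : s.1 * b * s.1 ∈ P.B := by
      have := mul_mem (P.sq_mem s.1 s.2) h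
      rwa [show s.1 * s.1 * (s.1⁻¹ * (b * s.1)) = s.1 * b * s.1 by group] at this
    rw [← SetLike.mem_coe, ← cell_one] at h2
    exact gen_ne_one P s (eq_of_mem_cell P hbs h2)

theorem cellMatrix_gen_sq [Fintype (G ⧸ P.B)] [DecidableEq (G ⧸ P.B)] (s : P.S) :
    cellMatrix P (gen P s) * cellMatrix P (gen P s) =
      ((qNum P s : ℝ) - 1) • cellMatrix P (gen P s) + (qNum P s : ℝ) • 1 := by
  ext x z
  induction x using QuotientGroup.induction_on with
  | _ g =>
    induction z using QuotientGroup.induction_on with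
    | _ h =>
      classical
      rw [cellMatrix_mul_apply, Matrix.add_apply, Matrix.smul_apply, Matrix.smul_apply,
        cellMatrix_mk, Matrix.one_apply, smul_eq_mul, smul_eq_mul]
      simp only [mk_eq_mk_iff]
      by_cases h1 : g⁻¹ * h ∈ cell P 1
      · have h1' : g⁻¹ * h ∉ cell P (gen P s) := fun h2 =>
          gen_ne_one P s (eq_of_mem_cell P h2 h1)
        rw [if_pos h1, if_neg h1', mul_zero, zero_add, mul_one, Nat.cast_inj, qNum]
        rw [cell_one] at h1
        have := ncard_paths_translate P (gen P s) (gen P s) g 1 1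
        rw [mul_one] at this
        rw [show h = g * (g⁻¹ * h) by group, paths_right P _ _ _ _ h1]
        exact this
      · rw [if_neg h1, mul_zero, add_zero]
        by_cases h2 : g⁻¹ * h ∈ cell P (gen P s)
        · rw [if_pos h2, mul_one, ← ncard_paths_gen P s h2]; push_cast; ring
        · rw [if_neg h2, mul_zero, Nat.cast_eq_zero, Set.ncard_eq_zero (Set.toFinite _),
            Set.eq_empty_iff_forall_notMem]
          intro y hy
          induction y using QuotientGroup.induction_on with
          | _ k =>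
            rw [mk_mem_paths] at hy
            have := cell_gen_mul P s hy.1 hy.2
            rw [gen_mul_self, show g⁻¹ * k * (k⁻¹ * h) = g⁻¹ * h by group] at this
            exact this.elim h1 h2

omit [Finite G] in
theorem trace_cellMatrix [Fintype (G ⧸ P.B)] {w : Weyl P} (hw : w ≠ 1) :
    (cellMatrix P w).trace = 0 :=
  Finset.sum_eq_zero fun x _ => cellMatrix_self P hw x

omit [Finite G] in
theorem exists_nat_trace_of_idem {ι : Type*} [Fintype ι] [DecidableEq ι] (x : Matrix ι ι ℝ)
    (hx : x * x = x) : ∃ m : ℕ, x.trace = m := by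
  have h : IsIdempotentElem (Matrix.toLin' x) := by
    rw [IsIdempotentElem, Module.End.mul_eq_comp, ← Matrix.toLin'_mul, hx]
  refine ⟨Module.finrank ℝ (LinearMap.range (Matrix.toLin' x)), ?_⟩
  rw [← Matrix.trace_toLin'_eq, (LinearMap.IsIdempotentElem.isProj_range (f := Matrix.toLin' x) h).trace]

end CfsgLib.FeitHigman
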